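import Mathlib
import Cfsg.Prelude.Def_TwoFusion
import Cfsg.Agent.Lib.Helper6.Basic

set_option autoImplicit false

namespace Cfsg.Agent.Lib.Helper6.Invol

variable {G : Type*} [Group G]

theorem inv_eq_self {s : G} (hs : s * s = 1) : s⁻¹ = s := inv_eq_of_mul_eq_one_left hs

theorem mul_self_of_orderOf {s : G} (hs : orderOf s = 2) : s * s = 1 := by
  rw [← pow_two, ← hs]; exact pow_orderOf_eq_one s

theorem ne_one_of_orderOf {s : G} (hs : orderOf s = 2) : s ≠ 1 := by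
  rintro rfl; simp at hs

theorem orderOf_eq_two {s : G} (hs : s * s = 1) (h1 : s ≠ 1) : orderOf s = 2 :=
  orderOf_eq_prime (by rw [pow_two]; exact hs) h1

theorem orderOf_eq_two_iff {s : G} : orderOf s = 2 ↔ s * s = 1 ∧ s ≠ 1 :=
  ⟨fun h => ⟨mul_self_of_orderOf h, ne_one_of_orderOf h⟩, fun h => orderOf_eq_two h.1 h.2⟩

theorem conj_mul_self {s : G} (hs : s * s = 1) (g : G) : (g * s * g⁻¹) * (g * s * g⁻¹) = 1 := by
  calc (g * s * g⁻¹) * (g * s * g⁻¹) = g * (s * s) * g⁻¹ := by group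
    _ = 1 := by rw [hs]; group

theorem mul_inv_eq {s t : G} (hs : s * s = 1) (ht : t * t = 1) : (s * t)⁻¹ = t * s := by
  rw [mul_inv_rev, inv_eq_self hs, inv_eq_self ht]

theorem pow_mul_left (s t : G) (k : ℕ) : (s * t) ^ k * s = s * (t * s) ^ k := by
  induction k with
  | zero => simp
  | succ k ih =>
    rw [pow_succ, pow_succ, mul_assoc, mul_assoc s t s, ← mul_assoc, ih, mul_assoc]

/-- `x^k s x^{-k} = x^{2k} s` for `x = s t`. -/
theorem conj_pow {s t : G} (hs : s * s = 1) (ht : t * t = 1) (k : ℕ) :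
    (s * t) ^ k * s * ((s * t) ^ k)⁻¹ = (s * t) ^ (2 * k) * s := by
  have h1 : s * ((s * t) ^ k)⁻¹ = (s * t) ^ k * s := by
    rw [pow_mul_left, ← inv_pow, mul_inv_eq hs ht]
  rw [mul_assoc, h1, ← mul_assoc, ← pow_add, two_mul]

/-- `x^{k+1} t x^{-(k+1)} = x^{2k+1} s` for `x = s t`. -/
theorem conj_pow' {s t : G} (hs : s * s = 1) (ht : t * t = 1) (k : ℕ) :
    (s * t) ^ (k + 1) * t * ((s * t) ^ (k + 1))⁻¹ = (s * t) ^ (2 * k + 1) * s := by
  have h2 : (s * t) ^ (k + 1) * t = (s * t) ^ k * s := by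
    rw [pow_succ, mul_assoc, mul_assoc, ht, mul_one]
  have h1 : s * ((s * t) ^ (k + 1))⁻¹ = (s * t) ^ (k + 1) * s := by
    rw [pow_mul_left, ← inv_pow, mul_inv_eq hs ht]
  rw [h2, mul_assoc, h1, ← mul_assoc, ← pow_add]
  congr 2; ring

theorem conj_of_odd {s t : G} (hs : s * s = 1) (ht : t * t = 1) {m : ℕ}
    (h : (s * t) ^ (2 * m + 1) = 1) : (s * t) ^ m * s * ((s * t) ^ m)⁻¹ = t := by
  rw [conj_pow hs ht]
  have : (s * t) ^ (2 * m) = (s * t)⁻¹ := by
    rw [pow_succ] at h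
    exact eq_inv_of_mul_eq_one_left h
  rw [this, mul_inv_eq hs ht, mul_assoc, hs, mul_one]

/-- every element `x^j s` is conjugate under a power of `x` to `s` or `t`. -/
theorem pow_mul_conj {s t : G} (hs : s * s = 1) (ht : t * t = 1) (j : ℕ) :
    ∃ k : ℕ, (s * t) ^ k * s * ((s * t) ^ k)⁻¹ = (s * t) ^ j * s ∨
      (s * t) ^ k * t * ((s * t) ^ k)⁻¹ = (s * t) ^ j * s := by
  rcases Nat.even_or_odd' j with ⟨k, rfl | rfl⟩
  · exact ⟨k, Or.inl (conj_pow hs ht k)⟩
  · exact ⟨k + 1, Or.inr (conj_pow' hs ht k)⟩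

/-- if `x = s t` has even order `2m`, then `x^m s` commutes with `s` and `t`. -/
theorem commute_of_pow {s t : G} (hs : s * s = 1) (ht : t * t = 1) {m : ℕ}
    (h : (s * t) ^ (2 * m) = 1) : Commute s ((s * t) ^ m) := by
  have h1 : s * ((s * t) ^ m)⁻¹ = (s * t) ^ m * s := by
    rw [pow_mul_left, ← inv_pow, mul_inv_eq hs ht]
  have h2 : ((s * t) ^ m)⁻¹ = (s * t) ^ m := by
    apply inv_eq_of_mul_eq_one_left
    rw [← pow_add, ← two_mul, h]
  rw [h2] at h1
  exact h1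

section Isolated

open Cfsg

theorem IsIsolated.conj {z : G} (hz : IsIsolatedInvolution z) (a : G) :
    IsIsolatedInvolution (a * z * a⁻¹) := by
  refine ⟨?_, ?_⟩
  · have := orderOf_injective (MulAut.conj a).toMonoidHom (MulAut.conj a).injective z
    simpa [hz.1] using this
  · intro g hg
    have h1 : Commute z ((a⁻¹ * g * a) * z * (a⁻¹ * g * a)⁻¹) := by
      have h2 : a⁻¹ * ((a * z * a⁻¹) * (g * (a * z * a⁻¹) * g⁻¹)) * a
          = a⁻¹ * ((g * (a * z * a⁻¹) * g⁻¹) * (a * z * a⁻¹)) * a := by rw [hg.eq]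
      show z * _ = _ * z
      simp only [mul_inv_rev, inv_inv, mul_assoc, inv_mul_cancel_left, inv_mul_cancel, mul_one] at h2 ⊢
      exact h2
    have h3 := hz.2 _ h1
    have h4 : a * ((a⁻¹ * g * a) * z * (a⁻¹ * g * a)⁻¹) * a⁻¹ = a * z * a⁻¹ := by rw [h3]
    simp only [mul_inv_rev, inv_inv, mul_assoc, mul_inv_cancel_left, mul_inv_cancel, mul_one] at h4 ⊢
    exact h4

/-- the product of an isolated involution with a conjugate has odd order. -/
theorem IsIsolated.odd_orderOf [Finite G] {z : G} (hz : IsIsolatedInvolution z) (g : G) :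
    Odd (orderOf (z * (g * z * g⁻¹))) := by
  set t := g * z * g⁻¹ with ht_def
  have hs : z * z = 1 := mul_self_of_orderOf hz.1
  have ht : t * t = 1 := conj_mul_self hs g
  by_contra hodd
  rw [Nat.not_odd_iff_even] at hodd
  obtain ⟨m, hm⟩ := hodd
  have hpos : 0 < orderOf (z * t) := orderOf_pos _
  have hm0 : 0 < m := by omega
  have hpow : (z * t) ^ (2 * m) = 1 := by
    rw [two_mul, ← hm]; exact pow_orderOf_eq_one _
  have hcomm := commute_of_pow hs ht hpow
  have hconj : ∃ a : G, a * z * a⁻¹ = (z * t) ^ m * z := by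
    obtain ⟨k, hk | hk⟩ := pow_mul_conj hs ht m
    · exact ⟨_, hk⟩
    · refine ⟨(z * t) ^ k * g, ?_⟩
      rw [← hk, ht_def]
      simp only [mul_inv_rev, mul_assoc]
  obtain ⟨a, ha⟩ := hconj
  have h1 : Commute z (a * z * a⁻¹) := by
    rw [ha]
    exact hcomm.mul_right (Commute.refl z)
  have h2 := hz.2 a h1
  rw [ha] at h2
  have h3 : (z * t) ^ m = 1 := by
    have := mul_right_cancel (b := z) (a := (z * t) ^ m) (c := 1) (by rw [h2, one_mul])
    exact this
  have h4 := orderOf_dvd_of_pow_eq_one h3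
  have := Nat.le_of_dvd hm0 h4
  omega

/-- two conjugates of an isolated involution are conjugate by a power of their product. -/
theorem IsIsolated.exists_pow_conj [Finite G] {z : G} (hz : IsIsolatedInvolution z) (g : G) :
    ∃ m : ℕ, (z * (g * z * g⁻¹)) ^ m * z * ((z * (g * z * g⁻¹)) ^ m)⁻¹ = g * z * g⁻¹ := by
  have hs : z * z = 1 := mul_self_of_orderOf hz.1
  have ht : (g * z * g⁻¹) * (g * z * g⁻¹) = 1 := conj_mul_self hs g
  obtain ⟨m, hm⟩ := IsIsolated.odd_orderOf hz g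
  exact ⟨m, conj_of_odd hs ht (by rw [← hm]; exact pow_orderOf_eq_one _)⟩

end Isolated

end Cfsg.Agent.Lib.Helper6.Invol
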