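import Mathlib
import Cfsg.Prelude.Def_TwoFusion
import Cfsg.Prelude.Def_Transfer
import Cfsg.Agent.Lib.Helper6.Invol
import Cfsg.Agent.Lib.Helper1.Transfer1
import Cfsg.Agent.S1182
import Cfsg.Agent.S1185

set_option autoImplicit false
set_option maxHeartbeats 400000
set_option linter.style.haveILetI false
set_option linter.unusedSectionVars false

namespace Cfsg.Agent.Lib.Helper6.Iso2

open Cfsg Cfsg.Agent.Lib.Helper6.Invol
open scoped commutatorElement

variable {G : Type*} [Group G] [Finite G]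

/-- the centralizer of an isolated involution has odd index -/
theorem odd_index {z : G} (hz : IsIsolatedInvolution z) :
    Odd (Subgroup.centralizer ({z} : Set G)).index := by
  haveI : Fact (Nat.Prime 2) := ⟨Nat.prime_two⟩
  set C := Subgroup.centralizer ({z} : Set G) with hC
  have hpg : IsPGroup 2 (Subgroup.zpowers z) := by
    rw [IsPGroup.iff_card]
    exact ⟨1, by rw [Nat.card_zpowers, hz.1, pow_one]⟩
  have h1 := hpg.card_modEq_card_fixedPoints (G ⧸ C)
  have h2 : Nat.card (MulAction.fixedPoints (Subgroup.zpowers z) (G ⧸ C)) = 1 := by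
    rw [Nat.card_eq_one_iff_unique]
    have key : ∀ a : MulAction.fixedPoints (Subgroup.zpowers z) (G ⧸ C),
        (a : G ⧸ C) = ((1 : G) : G ⧸ C) := by
      rintro ⟨a, ha⟩
      obtain ⟨g, rfl⟩ := QuotientGroup.mk_surjective a
      have h3 := ha ⟨z, Subgroup.mem_zpowers z⟩
      have h4 : ((z * g : G) : G ⧸ C) = (g : G ⧸ C) := h3
      rw [QuotientGroup.eq] at h4
      -- (z g)⁻¹ g ∈ C
      have h5 : g⁻¹ * z * g ∈ C := by
        have : g⁻¹ * z * g = ((z * g)⁻¹ * g)⁻¹ := by group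
        rw [this]
        exact inv_mem h4
      rw [hC, Subgroup.mem_centralizer_singleton_iff] at h5
      have h6 := hz.2 g⁻¹ (by rw [inv_inv]; exact h5.symm)
      rw [inv_inv] at h6
      change (g : G ⧸ C) = ((1 : G) : G ⧸ C)
      rw [QuotientGroup.eq, mul_one, hC]
      apply inv_mem
      rw [Subgroup.mem_centralizer_singleton_iff]
      calc g * z = g * (g⁻¹ * z * g) := by rw [h6]
        _ = z * g := by group
    refine ⟨⟨fun a b => Subtype.ext ((key a).trans (key b).symm)⟩, ⟨⟨((1 : G) : G ⧸ C), ?_⟩⟩⟩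
    rintro ⟨x, hx⟩
    change ((x * 1 : G) : G ⧸ C) = ((1 : G) : G ⧸ C)
    rw [QuotientGroup.eq, mul_one, mul_one, hC]
    apply inv_mem
    have hle : Subgroup.zpowers z ≤ Subgroup.centralizer ({z} : Set G) := by
      rw [Subgroup.zpowers_le, Subgroup.mem_centralizer_singleton_iff]
    exact hle hx
  rw [h2] at h1
  rw [Nat.odd_iff]
  exact h1

theorem residual_iff {z : G} (hz : IsIsolatedInvolution z) :
    Cfsg.pResidual 2 G = ⊤ ↔ Cfsg.pResidual 2 ↥(Subgroup.centralizer ({z} : Set G)) = ⊤ := by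
  haveI : Fact (Nat.Prime 2) := ⟨Nat.prime_two⟩
  set C := Subgroup.centralizer ({z} : Set G) with hC
  constructor
  · intro hG
    by_contra hne
    haveI hNn : (Cfsg.pResidual 2 ↥C).Normal := Cfsg.Agent.Lib.Helper1.pResidual_normal 2
    have hQ : IsPGroup 2 (↥C ⧸ Cfsg.pResidual 2 ↥C) :=
      Cfsg.Agent.Lib.Helper1.isPGroup_quotient_pResidual _ le_rfl
    haveI hnt : Nontrivial (↥C ⧸ Cfsg.pResidual 2 ↥C) := QuotientGroup.nontrivial_iff.mpr hne
    haveI hsol : Group.IsSolvable (↥C ⧸ Cfsg.pResidual 2 ↥C) := by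
      have := hQ.isNilpotent
      infer_instance
    have hlt := Group.IsSolvable.commutator_lt_top_of_nontrivial (↥C ⧸ Cfsg.pResidual 2 ↥C)
    let φ : ↥C →* Abelianization (↥C ⧸ Cfsg.pResidual 2 ↥C) :=
      Abelianization.of.comp (QuotientGroup.mk' (Cfsg.pResidual 2 ↥C))
    have hφs : Function.Surjective φ :=
      (QuotientGroup.mk'_surjective _).comp (QuotientGroup.mk'_surjective _)
    have hA : IsPGroup 2 (Abelianization (↥C ⧸ Cfsg.pResidual 2 ↥C)) :=
      hQ.of_surjective Abelianization.of (QuotientGroup.mk'_surjective _)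
    haveI hAnt : Nontrivial (Abelianization (↥C ⧸ Cfsg.pResidual 2 ↥C)) :=
      QuotientGroup.nontrivial_iff.mpr hlt.ne
    have hfoc : C.focalSubgroupOf ≤ φ.ker := by
      rw [Subgroup.focalSubgroupOf_eq_closure, Subgroup.closure_le]
      rintro g ⟨x, hx, u, hg⟩
      have hy : u * x * u⁻¹ ∈ C := by
        have : u * x * u⁻¹ = (g : G)⁻¹ * x := by
          rw [hg, commutatorElement_def]; group
        rw [this]
        exact mul_mem (inv_mem g.2) hx
      have hxz : Commute x z := by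
        rw [hC, Subgroup.mem_centralizer_singleton_iff] at hx
        exact hx
      have hyz : Commute (u * x * u⁻¹) z := by
        rw [hC, Subgroup.mem_centralizer_singleton_iff] at hy
        exact hy
      obtain ⟨c, -, hcz, hc⟩ := Cfsg.Agent.S1182.result z hz ⊤
        (by rw [Subgroup.normalizer_eq_top]; exact Subgroup.mem_top z) x (u * x * u⁻¹)
        (Subgroup.mem_top _) (Subgroup.mem_top _) hxz hyz u (Subgroup.mem_top _) rfl
      have hcC : c ∈ C := by
        rw [hC, Subgroup.mem_centralizer_singleton_iff]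
        exact hcz
      have hgeq : g = ⁅(⟨x, hx⟩ : ↥C), ⟨c, hcC⟩⁆ := by
        apply Subtype.ext
        rw [hg]
        change ⁅x, u⁆ = ⁅x, c⁆
        rw [commutatorElement_def, commutatorElement_def]
        calc x * u * x⁻¹ * u⁻¹ = x * (u * x * u⁻¹)⁻¹ := by group
          _ = x * (c * x * c⁻¹)⁻¹ := by rw [hc]
          _ = _ := by group
      change g ∈ φ.ker
      rw [MonoidHom.mem_ker, hgeq, commutatorElement_def, map_mul, map_mul, map_mul, map_inv,
        map_inv]
      rw [mul_comm (φ ⟨x, hx⟩) (φ ⟨c, hcC⟩)]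
      group
    let ψ : ↥C ⧸ C.focalSubgroupOf →* Abelianization (↥C ⧸ Cfsg.pResidual 2 ↥C) :=
      QuotientGroup.lift C.focalSubgroupOf φ hfoc
    have hV := Cfsg.Agent.Lib.Helper1.pResidual_le_ker (ψ.comp C.transferFocal) hA
    rw [hG] at hV
    have hall : ∀ x : ↥C, φ x = 1 := by
      intro x
      have h1 : (x : G) ∈ (ψ.comp C.transferFocal).ker := hV (Subgroup.mem_top _)
      rw [MonoidHom.mem_ker, MonoidHom.comp_apply, Subgroup.transferFocal_eq_pow, map_pow] at h1
      have h2 : ψ (x : ↥C ⧸ C.focalSubgroupOf) = φ x := rfl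
      rw [h2] at h1
      obtain ⟨k, hk⟩ := hA (φ x)
      have h3 : orderOf (φ x) ∣ C.index := orderOf_dvd_of_pow_eq_one h1
      have h4 : orderOf (φ x) ∣ 2 ^ k := orderOf_dvd_of_pow_eq_one hk
      rw [← orderOf_eq_one_iff]
      refine Nat.eq_one_of_dvd_coprimes ?_ h3 h4
      exact Nat.Coprime.pow_right k (Nat.coprime_two_right.mpr (odd_index hz))
    obtain ⟨a, ha⟩ := exists_ne (1 : Abelianization (↥C ⧸ Cfsg.pResidual 2 ↥C))
    obtain ⟨x, rfl⟩ := hφs a
    exact ha (hall x)
  · intro hCt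
    rw [eq_top_iff]
    intro g _
    obtain ⟨k, ⟨⟨hodd, -⟩, hk⟩, -⟩ := Cfsg.Agent.S1185.result z hz g
    have h1 : k ∈ Cfsg.pResidual 2 G :=
      Cfsg.Agent.Lib.Helper1.mem_pResidual_of_coprime (Nat.coprime_two_right.mpr hodd)
    have hmap : (Cfsg.pResidual 2 ↥C).map C.subtype ≤ Cfsg.pResidual 2 G := by
      rw [Cfsg.pResidual, MonoidHom.map_closure, Subgroup.closure_le]
      rintro _ ⟨x, hx, rfl⟩
      apply Subgroup.subset_closure
      exact Nat.Coprime.coprime_dvd_left (orderOf_map_dvd C.subtype x) hx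
    have h2 : g⁻¹ * k ∈ Cfsg.pResidual 2 G := by
      apply hmap
      refine ⟨⟨g⁻¹ * k, hk⟩, ?_, rfl⟩
      rw [hCt]
      exact Subgroup.mem_top _
    have : g = k * (g⁻¹ * k)⁻¹ := by group
    rw [this]
    exact mul_mem h1 (inv_mem h2)

end Cfsg.Agent.Lib.Helper6.Iso2
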