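import Mathlib
import Cfsg.Prelude.Def_TwoFusion
import Cfsg.Agent.Lib.Helper6.Invol
import Cfsg.Agent.Lib.Helper3.Invol2
import Cfsg.Agent.S1185

set_option autoImplicit false
set_option maxHeartbeats 400000
set_option linter.style.haveILetI false
set_option linter.unusedSectionVars false
set_option linter.unusedVariables false

namespace Cfsg.Agent.Lib.Helper6.Iso3

open Cfsg Cfsg.Agent.Lib.Helper6.Invol

variable {G : Type*} [Group G] [Finite G]

/-- odd order and inverted by `z` -/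
def PK (z k : G) : Prop := Odd (orderOf k) ∧ z * k * z⁻¹ = k⁻¹

theorem comm_eq {z : G} (hz : IsIsolatedInvolution z) (g0 g1 : G)
    (h : Commute (g0 * z * g0⁻¹) (g1 * z * g1⁻¹)) : g0 * z * g0⁻¹ = g1 * z * g1⁻¹ := by
  have h1 := (IsIsolated.conj hz g1).2 (g0 * g1⁻¹)
  have h2 : g0 * g1⁻¹ * (g1 * z * g1⁻¹) * (g0 * g1⁻¹)⁻¹ = g0 * z * g0⁻¹ := by group
  rw [h2] at h1
  exact h1 h.symm

theorem PK_of_conj {z : G} (hz : IsIsolatedInvolution z) (g : G) : PK z (g * z * g⁻¹ * z) := by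
  have hzz : z * z = 1 := mul_self_of_orderOf hz.1
  have hzi : z⁻¹ = z := inv_eq_self hzz
  have htt : (g * z * g⁻¹) * (g * z * g⁻¹) = 1 := conj_mul_self hzz g
  constructor
  · have := IsIsolated.odd_orderOf hz g
    rw [← orderOf_inv, mul_inv_eq hzz htt] at this
    exact this
  · rw [mul_inv_eq htt hzz, hzi]
    calc z * (g * z * g⁻¹ * z) * z = z * (g * z * g⁻¹) * (z * z) := by group
      _ = _ := by rw [hzz, mul_one]

theorem PK_sqrt {z k : G} (hk : PK z k) :
    ∃ h : G, PK z h ∧ h * h = k ∧ ∀ v : G, Commute v k → Commute v h := by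
  obtain ⟨a, ha⟩ := hk.1
  refine ⟨k ^ (a + 1), ⟨hk.1.of_dvd_nat (orderOf_pow_dvd _), ?_⟩, ?_, fun v hv => hv.pow_right _⟩
  · rw [← _root_.conj_pow, hk.2, inv_pow]
  · rw [← pow_add, show a + 1 + (a + 1) = (2 * a + 1) + 1 by ring, ← ha, pow_succ,
      pow_orderOf_eq_one, one_mul]

theorem conj_of_PK {z : G} (hz : IsIsolatedInvolution z) {k : G} (hk : PK z k) :
    ∃ g : G, k * z = g * z * g⁻¹ := by
  have hzz : z * z = 1 := mul_self_of_orderOf hz.1
  obtain ⟨h, hh, hhk, -⟩ := PK_sqrt hk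
  refine ⟨h, ?_⟩
  rw [Cfsg.Agent.S1185.sq_eq hzz hh.2, pow_two, hhk]

open Cfsg.Agent.Lib.Helper3.Invol in
theorem KL {y s : G} (hy : IsIsolatedInvolution y) (hs : orderOf s = 2) (hns : ¬ IsConj s y) :
    ∃ w : G, Commute w s ∧ Commute w y ∧ IsConj y (w * s) ∧
      ∀ v : G, Commute v s → Commute v y → Commute v w := by
  have ht := hy.1
  have hs2 := sq_of_order hs
  have ht2 := sq_of_order ht
  have heven : Even (orderOf (s * y)) := by
    by_contra hne
    rw [Nat.not_even_iff_odd] at hne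
    obtain ⟨m, hm⟩ := hne
    apply hns
    have h := (isConj_zpow_mul_x hs2 ht2 (2 * (m : ℤ))).1 ⟨m, by ring⟩
    have h1 : (s * y) ^ ((2 * m + 1 : ℕ) : ℤ) = 1 := by
      rw [zpow_natCast, ← hm, pow_orderOf_eq_one]
    have h2 : (2 * (m : ℤ)) = ((2 * m + 1 : ℕ) : ℤ) + (-1) := by push_cast; ring
    rw [h2, zpow_add, h1, one_mul, ← y_eq hs2 ht2] at h
    exact h
  obtain ⟨m, hm⟩ := heven
  rw [← two_mul] at hm
  have hpos : 0 < orderOf (s * y) := orderOf_pos _
  have hm0 : m ≠ 0 := by omega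
  obtain ⟨hz, hzs, hzt⟩ := central_invol hs ht hm0 hm
  have hmo : Odd m := by
    by_contra hme
    rw [Nat.not_odd_iff_even] at hme
    have hconj : IsConj y ((s * y) ^ ((m : ℤ) - 1) * s) := by
      refine (isConj_zpow_mul_x hs2 ht2 ((m : ℤ) - 1)).2 ?_
      have : Even (m : ℤ) := by exact_mod_cast hme
      exact this.sub_odd odd_one
    have he : (s * y) ^ ((m : ℤ) - 1) * s = (s * y) ^ m * y := by
      have h := y_eq hs2 ht2
      calc (s * y) ^ ((m : ℤ) - 1) * s = (s * y) ^ (m : ℤ) * ((s * y) ^ (-1 : ℤ) * s) := by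
            rw [← mul_assoc, ← zpow_add]; rfl
        _ = (s * y) ^ m * y := by rw [← h, zpow_natCast]
    rw [he] at hconj
    have hc : Commute y ((s * y) ^ m * y) := (hzt.symm).mul_right (Commute.refl y)
    obtain ⟨c, hc'⟩ := isConj_iff.mp hconj
    have := hy.2 c (by rw [hc']; exact hc)
    rw [hc'] at this
    exact ne_one_of_order hz (mul_right_cancel (this.trans (one_mul y).symm))
  refine ⟨(s * y) ^ m, hzs, hzt, ?_, fun v h1 h2 => (h1.mul_right h2).pow_right m⟩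
  have := (isConj_zpow_mul_x hs2 ht2 (m : ℤ)).2 (by exact_mod_cast hmo)
  rwa [zpow_natCast] at this

theorem z_inv_z {z a : G} (hzz : z * z = 1) (ha : z * a * z⁻¹ = a⁻¹) : z * a⁻¹ * z = a := by
  have hzi : z⁻¹ = z := inv_eq_self hzz
  have := congrArg (·⁻¹) ha
  simp only [mul_inv_rev, inv_inv] at this
  rw [hzi, ← mul_assoc] at this
  exact this

theorem z_mul {z a : G} (hzz : z * z = 1) (ha : z * a * z⁻¹ = a⁻¹) : z * a = a⁻¹ * z := by
  calc z * a = (z * a * z⁻¹) * z := by group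
    _ = a⁻¹ * z := by rw [ha]

theorem mul_z {z a : G} (hzz : z * z = 1) (ha : z * a * z⁻¹ = a⁻¹) : a * z = z * a⁻¹ := by
  have h := z_inv_z hzz ha
  calc a * z = (z * a⁻¹ * z) * z := by rw [h]
    _ = z * a⁻¹ * (z * z) := by group
    _ = z * a⁻¹ := by rw [hzz, mul_one]

/-- `a b a z = a (b z) a⁻¹` -/
theorem aba_z {z a : G} (hzz : z * z = 1) (ha : z * a * z⁻¹ = a⁻¹) (b : G) :
    a * b * a * z = a * (b * z) * a⁻¹ := by
  rw [mul_assoc (a * b), mul_z hzz ha]
  group

theorem PK_aba {z : G} (hz : IsIsolatedInvolution z) {a b : G} (ha : PK z a) (hb : PK z b) :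
    PK z (a * b * a) := by
  have hzz : z * z = 1 := mul_self_of_orderOf hz.1
  obtain ⟨g, hg⟩ := conj_of_PK hz hb
  have h1 : a * b * a = (a * g) * z * (a * g)⁻¹ * z := by
    have h2 : (a * g) * z * (a * g)⁻¹ = a * b * a * z := by
      rw [aba_z hzz ha.2, hg]; group
    rw [h2, mul_assoc (a * b * a), hzz, mul_one]
  rw [h1]
  exact PK_of_conj hz _

/-- key uniqueness: the `C(s)`-part is determined -/
theorem key_unique {z : G} (hz : IsIsolatedInvolution z) {s : G} (hs : orderOf s = 2)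
    (hsz : Commute s z) (hne : s ≠ z) {a b : G} (ha : PK z a) (has : Commute a s)
    (hb : PK z b) (hbs : Commute b (s * z)) {w : G}
    (hws : Commute w s) (hwc : ∃ c : G, c * z * c⁻¹ = w * s)
    (hwv : ∀ v : G, Commute v s → Commute v (a * b * a * z) → Commute v w) :
    a * z * a⁻¹ = w * s := by
  have hzz : z * z = 1 := mul_self_of_orderOf hz.1
  have hss : s * s = 1 := mul_self_of_orderOf hs
  obtain ⟨c, hc⟩ := hwc
  rw [← hc]
  apply comm_eq hz
  rw [hc]
  -- y₁ = a z a⁻¹ = s * v₁, v₁ = s * y₁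
  set y1 := a * z * a⁻¹ with hy1
  have hy1s : Commute y1 s := (has.mul_left hsz.symm).mul_left has.inv_left
  have hv1s : Commute (s * y1) s := (Commute.refl s).mul_left hy1s
  have hv1 : s * y1 = a * (s * z) * a⁻¹ := by
    rw [hy1]
    calc s * (a * z * a⁻¹) = (s * a) * z * a⁻¹ := by group
      _ = (a * s) * z * a⁻¹ := by rw [has.eq]
      _ = _ := by group
  have hbz : Commute (s * z) (b * z) := by
    refine hbs.symm.mul_right ?_
    exact hsz.mul_left (Commute.refl z)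
  have hv1y : Commute (s * y1) (a * b * a * z) := by
    rw [hv1, aba_z hzz ha.2]
    have := hbz
    unfold Commute SemiconjBy at this ⊢
    calc a * (s * z) * a⁻¹ * (a * (b * z) * a⁻¹) = a * ((s * z) * (b * z)) * a⁻¹ := by group
      _ = a * ((b * z) * (s * z)) * a⁻¹ := by rw [this]
      _ = _ := by group
  have hv1w : Commute (s * y1) w := hwv _ hv1s hv1y
  have hy1eq : y1 = s * (s * y1) := by rw [← mul_assoc, hss, one_mul]
  rw [hy1eq]
  refine Commute.mul_left ?_ ?_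
  · exact hws.symm.mul_right (Commute.refl s)
  · exact hv1w.mul_right hv1s

theorem not_conj {z : G} (hz : IsIsolatedInvolution z) {s : G} (hsz : Commute s z) (hne : s ≠ z)
    (g : G) : ¬ IsConj s (g * z * g⁻¹) := by
  intro h
  obtain ⟨c, hc⟩ := isConj_iff.mp h.symm
  apply hne
  have h1 : (c * g) * z * (c * g)⁻¹ = s := by rw [← hc]; group
  have := hz.2 (c * g) (by rw [h1]; exact hsz.symm)
  rw [h1] at this
  exact this

theorem bij {z : G} (hz : IsIsolatedInvolution z) {s : G} (hs : orderOf s = 2)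
    (hsz : Commute s z) (hne : s ≠ z) :
    Function.Bijective (fun ab : {k : G // Odd (orderOf k) ∧ z * k * z⁻¹ = k⁻¹ ∧ Commute k s} ×
        {k : G // Odd (orderOf k) ∧ z * k * z⁻¹ = k⁻¹ ∧ Commute k (s * z)} =>
      (⟨ab.1.1 * ab.2.1 * ab.1.1,
        PK_aba hz ⟨ab.1.2.1, ab.1.2.2.1⟩ ⟨ab.2.2.1, ab.2.2.2.1⟩⟩ :
          {k : G // Odd (orderOf k) ∧ z * k * z⁻¹ = k⁻¹})) := by
  have hzz : z * z = 1 := mul_self_of_orderOf hz.1
  have hss : s * s = 1 := mul_self_of_orderOf hs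
  constructor
  · rintro ⟨⟨a, ha1, ha2, ha3⟩, ⟨b, hb1, hb2, hb3⟩⟩ ⟨⟨a', ha1', ha2', ha3'⟩, ⟨b', hb1', hb2', hb3'⟩⟩ h
    have h0 : a * b * a = a' * b' * a' := congrArg Subtype.val h
    obtain ⟨g, hg⟩ := conj_of_PK hz (PK_aba hz ⟨ha1, ha2⟩ ⟨hb1, hb2⟩)
    obtain ⟨w, hws, hwy, hwc, hwv⟩ := KL (IsIsolated.conj hz g) hs (not_conj hz hsz hne g)
    obtain ⟨c, hc⟩ := isConj_iff.mp hwc
    have hc' : (c * g) * z * (c * g)⁻¹ = w * s := by rw [← hc]; group
    have e1 := key_unique hz hs hsz hne ⟨ha1, ha2⟩ ha3 ⟨hb1, hb2⟩ hb3 hws ⟨_, hc'⟩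
      (by rw [hg]; exact hwv)
    have e2 := key_unique hz hs hsz hne ⟨ha1', ha2'⟩ ha3' ⟨hb1', hb2'⟩ hb3' hws ⟨_, hc'⟩
      (by rw [← h0, hg]; exact hwv)
    have e3 : a = a' := by
      apply Cfsg.Agent.S1185.eq_of_sq_eq ha1 ha1'
      have := e1.trans e2.symm
      rw [Cfsg.Agent.S1185.sq_eq hzz ha2, Cfsg.Agent.S1185.sq_eq hzz ha2'] at this
      exact mul_right_cancel this
    subst e3
    have e4 : b = b' := mul_left_cancel (mul_right_cancel h0)
    subst e4
    rfl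
  · rintro ⟨k, hk1, hk2⟩
    obtain ⟨g, hg⟩ := conj_of_PK hz (⟨hk1, hk2⟩ : PK z k)
    obtain ⟨w, hws, hwy, hwc, hwv⟩ := KL (IsIsolated.conj hz g) hs (not_conj hz hsz hne g)
    obtain ⟨c, hc⟩ := isConj_iff.mp hwc
    have hc' : (c * g) * z * (c * g)⁻¹ = w * s := by rw [← hc]; group
    have hcP : PK z (w * s * z) := by rw [← hc']; exact PK_of_conj hz _
    have hcs : Commute s (w * s * z) := (hws.symm.mul_right (Commute.refl s)).mul_right hsz
    obtain ⟨a, haP, haa, hav⟩ := PK_sqrt hcP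
    have has : Commute a s := (hav s hcs).symm
    -- w = a (s z) a⁻¹
    have hw : w = a * (s * z) * a⁻¹ := by
      have h1 : a * (s * z) * a⁻¹ = s * (a * z * a⁻¹) := by
        calc a * (s * z) * a⁻¹ = (a * s) * z * a⁻¹ := by group
          _ = (s * a) * z * a⁻¹ := by rw [has.eq]
          _ = _ := by group
      rw [h1, Cfsg.Agent.S1185.sq_eq hzz haP.2, pow_two, haa]
      calc w = w * (s * s) * (z * z) := by rw [hss, hzz, mul_one, mul_one]
        _ = (w * s) * s * z * z := by group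
        _ = (s * w) * s * z * z := by rw [hws.eq]
        _ = _ := by group
    -- b
    have hbz : a⁻¹ * k * a⁻¹ * z = (a⁻¹ * g) * z * (a⁻¹ * g)⁻¹ := by
      have h1 : a⁻¹ * z = z * a := by
        rw [z_mul hzz haP.2]
      calc a⁻¹ * k * a⁻¹ * z = a⁻¹ * k * (a⁻¹ * z) := by group
        _ = a⁻¹ * k * (z * a) := by rw [h1]
        _ = a⁻¹ * (k * z) * a := by group
        _ = a⁻¹ * (g * z * g⁻¹) * a := by rw [hg]
        _ = _ := by group
    have hbP : PK z (a⁻¹ * k * a⁻¹) := by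
      have h1 : a⁻¹ * k * a⁻¹ = (a⁻¹ * g) * z * (a⁻¹ * g)⁻¹ * z := by
        rw [← hbz, mul_assoc (a⁻¹ * k * a⁻¹), hzz, mul_one]
      rw [h1]
      exact PK_of_conj hz _
    have hbs : Commute (a⁻¹ * k * a⁻¹) (s * z) := by
      have h1 : Commute (a⁻¹ * k * a⁻¹ * z) (s * z) := by
        have h2 : a⁻¹ * k * a⁻¹ * z = a⁻¹ * (g * z * g⁻¹) * a := by rw [hbz]; group
        have h3 : s * z = a⁻¹ * w * a := by rw [hw]; group
        rw [h2, h3]
        have := hwy.symm
        unfold Commute SemiconjBy at this ⊢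
        calc a⁻¹ * (g * z * g⁻¹) * a * (a⁻¹ * w * a) = a⁻¹ * ((g * z * g⁻¹) * w) * a := by group
          _ = a⁻¹ * (w * (g * z * g⁻¹)) * a := by rw [this]
          _ = _ := by group
      have h4 : Commute z (s * z) := hsz.symm.mul_right (Commute.refl z)
      have h5 : a⁻¹ * k * a⁻¹ = (a⁻¹ * k * a⁻¹ * z) * z := by
        rw [mul_assoc (a⁻¹ * k * a⁻¹), hzz, mul_one]
      rw [h5]
      exact h1.mul_left h4
    refine ⟨⟨⟨a, haP.1, haP.2, has⟩, ⟨a⁻¹ * k * a⁻¹, hbP.1, hbP.2, hbs⟩⟩, ?_⟩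
    apply Subtype.ext
    change a * (a⁻¹ * k * a⁻¹) * a = k
    group

theorem card_K {z : G} (hz : IsIsolatedInvolution z) :
    Nat.card G = Nat.card (Subgroup.centralizer ({z} : Set G)) *
      Nat.card {k : G // Odd (orderOf k) ∧ z * k * z⁻¹ = k⁻¹} := by
  set C := Subgroup.centralizer ({z} : Set G) with hC
  have hbij : Function.Bijective
      (fun k : {k : G // Odd (orderOf k) ∧ z * k * z⁻¹ = k⁻¹} => ((k : G) : G ⧸ C)) := by
    constructor
    · rintro ⟨k, hk⟩ ⟨k', hk'⟩ h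
      have h1 : ((k : G) : G ⧸ C) = ((k' : G) : G ⧸ C) := h
      rw [QuotientGroup.eq] at h1
      apply Subtype.ext
      exact (Cfsg.Agent.S1185.result z hz k).unique ⟨hk, by rw [inv_mul_cancel]; exact one_mem _⟩
        ⟨hk', h1⟩
    · intro q
      obtain ⟨g, rfl⟩ := QuotientGroup.mk_surjective q
      obtain ⟨k, ⟨hk, hk2⟩, -⟩ := Cfsg.Agent.S1185.result z hz g
      refine ⟨⟨k, hk⟩, ?_⟩
      exact (QuotientGroup.eq.mpr hk2).symm
  rw [Nat.card_congr (Equiv.ofBijective _ hbij), mul_comm]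
  exact Subgroup.card_eq_card_quotient_mul_card_subgroup C

theorem card_formula {z : G} (hz : IsIsolatedInvolution z) {s : G} (hs : orderOf s = 2)
    (hsz : Commute s z) :
    Nat.card G = Nat.card (Subgroup.centralizer ({z} : Set G)) *
      Nat.card {k : G // Odd (orderOf k) ∧ z * k * z⁻¹ = k⁻¹ ∧ Commute k (s * z)} *
      Nat.card {k : G // Odd (orderOf k) ∧ z * k * z⁻¹ = k⁻¹ ∧ Commute k s} := by
  have hzz : z * z = 1 := mul_self_of_orderOf hz.1
  rw [card_K hz, mul_assoc]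
  congr 1
  by_cases hne : s = z
  · subst hne
    have h1 : Nat.card {k : G // Odd (orderOf k) ∧ s * k * s⁻¹ = k⁻¹ ∧ Commute k s} = 1 := by
      rw [Nat.card_eq_one_iff_unique]
      have key : ∀ k : {k : G // Odd (orderOf k) ∧ s * k * s⁻¹ = k⁻¹ ∧ Commute k s},
          (k : G) = 1 := by
        rintro ⟨k, h1, h2, h3⟩
        have h4 : k = k⁻¹ := by
          rw [← h2, ← h3.eq]; group
        have h5 : k ^ 2 = 1 := by
          rw [pow_two]
          nth_rewrite 1 [h4]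
          exact inv_mul_cancel k
        have h6 : orderOf k ∣ 2 := orderOf_dvd_of_pow_eq_one h5
        change k = 1
        rw [← orderOf_eq_one_iff]
        exact Nat.eq_one_of_dvd_coprimes (Nat.coprime_two_right.mpr h1) dvd_rfl h6
      refine ⟨⟨fun a b => Subtype.ext ((key a).trans (key b).symm)⟩, ⟨⟨1, ?_, ?_, ?_⟩⟩⟩
      · rw [orderOf_one]; exact odd_one
      · group
      · exact Commute.one_left s
    rw [h1, mul_one]
    apply Nat.card_congr
    apply Equiv.subtypeEquivRight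
    intro k
    rw [hzz]
    constructor
    · rintro ⟨h1, h2⟩
      exact ⟨h1, h2, Commute.one_right k⟩
    · rintro ⟨h1, h2, -⟩
      exact ⟨h1, h2⟩
  · rw [← Nat.card_congr (Equiv.ofBijective _ (bij hz hs hsz hne)), Nat.card_prod, mul_comm]

end Cfsg.Agent.Lib.Helper6.Iso3
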